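import Cfsg.Agent.SECrit.C3
import Cfsg.Agent.GW.LiftSE
import Cfsg.Agent.Solv.Conj

/-!
# The case `|Fix v| = q + 1` with `C(W)` a 2-group and `|D0| = 2`

The fixed point sets of the members of `VV` are the lines of a `2-(q^3+1, q+1, 1)` design.
-/

set_option autoImplicit false

namespace Cfsg.Lib.SEC

open Cfsg.Lib.Bender Cfsg.Lib.Trans Cfsg.Lib.Gold Cfsg.Lib MulAction Subgroup
open Cfsg.Lib.TIW

universe u v

variable {G : Type u} {Ω : Type v} [Group G] [Finite G] [MulAction G Ω] {Z : Set G}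

theorem Ctx3.WA_le_C1 (hC : Ctx3 G Ω Z) {v : G} (hv : v ∈ VV G Ω) {a : Ω} (ha : v • a = a) :
    WA Z a ≤ C1 v := fun w hw => mem_C1_iff.2 (hC.vcent hv ha w hw)

theorem Ctx3.sbp_VV (hC : Ctx3 G Ω Z) {v : G} (hv : v ∈ VV G Ω) {a : Ω} (ha : v • a = a) :
    ∃ Q, SBP Ω Z (C1 v) a Q := by
  obtain ⟨b, hba, hb⟩ := exists_ne_of_VV hv a
  exact hC.sbp _ (hC.C1_ne_top hv.1.1) (hC.ZR_of_le (hC.WA_le_C1 hv ha)) a (hC.mem_DZ_C1 hv ha) b
    (hC.mem_DZ_C1 hv hb) hba.symm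

theorem Ctx3.KT_le_LZ (hC : Ctx3 G Ω Z) {v : G} (hv : v ∈ VV G Ω) {a b : Ω} (hab : a ≠ b)
    (ha : v • a = a) (hb : v • b = b) : KT Z a b ≤ LZ Z (C1 v) := by
  have h := (hC.d0 hab (hC.mem_D0_of_VV hv ha hb)).2
  refine (closure_le _).2 ?_
  rintro _ ⟨t, ht, t', ht', rfl⟩
  exact mul_mem (mem_LZ ht.1 (mem_C1_iff.2 (h t ht).symm)) (mem_LZ ht'.1 (mem_C1_iff.2 (h t' ht').symm))

/-- A nonidentity element of the torus fixes only the two points. -/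
theorem Ctx3.KT_fix (hC : Ctx3 G Ω Z) {v : G} (hv : v ∈ VV G Ω) {a b : Ω} (hab : a ≠ b)
    (ha : v • a = a) (hb : v • b = b) {k : G} (hk : k ∈ KT Z a b) (hk1 : k ≠ 1) {c : Ω}
    (hc : k • c = c) : c = a ∨ c = b := by
  obtain ⟨Q, hQ⟩ := hC.sbp_VV hv ha
  obtain ⟨t, htM, ht⟩ := hC.zs.exists_TZ (hC.mem_DZ_C1 hv ha) (hC.mem_DZ_C1 hv hb) hab
  have hkv : k * v = v * k := mem_C1_iff.1 (LZ_le _ (hC.KT_le_LZ hv hab ha hb hk))
  have h1 := (hC.mem_KT_iff hab ht).1 hk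
  have h2 := hQ.kfix b hab.symm t htM ht k ⟨⟨mem_C1_iff.2 hkv, h1.1⟩, h1.2⟩ hk1
  by_cases hvc : v • c = c
  · exact h2 c (hC.mem_DZ_C1 hv hvc) hc
  obtain ⟨s, hs, hu⟩ := hC.foot hv hvc
  have h3 : k * s * k⁻¹ = s := hu _ ⟨hC.zs.conj s hs.1 k, by
    have c1 : Commute k v := hkv
    exact (c1.mul_left hs.2.1).mul_left c1.inv_left, by
    rw [show v * (k * s * k⁻¹) = k * (v * s) * k⁻¹ by rw [← mul_assoc, ← mul_assoc, ← hkv]; group,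
      mul_smul, mul_smul, inv_smul_eq_iff.2 hc.symm, hs.2.2, hc]⟩
  rw [mul_inv_eq_iff_eq_mul] at h3
  obtain ⟨d, hd⟩ := hC.zs.exists_ZA hs.1
  rcases h2 d (hC.mem_DZ_C1 hv (hC.zs.fix_of_comm hd hs.2.1.symm)) (hC.zs.fix_of_comm hd h3) with
    rfl | rfl
  · exact absurd (hC.KT_eq_one hab hd hk h3) hk1
  · exact absurd (hC.KT_eq_one hab.symm hd (hC.zs.KT_comm a d ▸ hk) h3) hk1

/-- An element of odd order with a fixed point inverted by a member of `Z` lies in a torus. -/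
theorem Ctx3.mem_KT_of_inv (hC : Ctx3 G Ω Z) {x g : G} (hx : x ∈ Z) (ho : Odd (orderOf g))
    (h1 : g ≠ 1) (hi : x * g * x⁻¹ = g⁻¹) {y : Ω} (hy : g • y = y) :
    y ≠ x • y ∧ g ∈ KT Z y (x • y) := by
  have hne : y ≠ x • y := fun e => by
    have hxW : x ∈ WA Z y := mem_WA ⟨hx, e.symm⟩
    have h2 := hC.WA_sq (mul_mem (mem_normalizer_conj (hC.zs.mem_Ns_WA hy) hxW) (inv_mem hxW))
    rw [show g * x * g⁻¹ * x⁻¹ = g * (x * g * x⁻¹)⁻¹ by group, hi, inv_inv] at h2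
    exact h1 (Chev.RankOne.eq_one_of_sq_of_odd ho (Chev.RankOne.eq_one_of_sq_of_odd
      (by rw [← pow_two]; exact ho.of_dvd_nat (orderOf_pow_dvd 2)) h2))
  refine ⟨hne, (hC.kmem hne ⟨hx, rfl⟩).2 (hC.zs.mul_mem_TZ_of_inv ⟨hx, rfl⟩ ⟨mem_St.2 ⟨hy, ?_⟩, hi⟩ ho)⟩
  rw [smul_eq_iff_eq_inv_smul, ← hi, mul_smul, mul_smul, inv_smul_smul, hy]

/-- The configuration of the case. -/
structure Uni (G Ω : Type*) [Group G] [MulAction G Ω] (Z : Set G) : Prop extends Ctx3 G Ω Z where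
  fcard : ∀ v ∈ VV G Ω, ∀ a : Ω, (fixedBy Ω v).ncard = Nat.card (WA Z a) + 1
  ctwo : ∀ a : Ω, IsPGroup 2 (Cs (WA Z a))
  dtwo : ∀ a b : Ω, a ≠ b → Nat.card (D0 Z a b) = 2

/-- Two paths of length two in the commuting graph on `VV` with the same ends. -/
structure Conf (Ω : Type*) [MulAction G Ω] (h w w' v : G) : Prop where
  hw : w ∈ VV G Ω
  hw' : w' ∈ VV G Ω
  hv : v ∈ VV G Ω
  ne : w ≠ w'
  ne1 : w ≠ v
  ne2 : w' ≠ v
  c1 : w * v = v * w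
  c2 : w' * v = v * w'
  h1 : h ≠ 1
  odd : Odd (orderOf h)
  ch : w * h = h * w
  ch' : w' * h = h * w'
  inv : v * h * v⁻¹ = h⁻¹

omit [Finite G] in
theorem Conf.sq {h w w' v : G} (c : Conf Ω h w w' v) : Conf Ω (h * h) w w' v :=
  { c with
    h1 := fun e => c.h1 (Chev.RankOne.eq_one_of_sq_of_odd c.odd e)
    odd := by rw [← pow_two]; exact c.odd.of_dvd_nat (orderOf_pow_dvd 2)
    ch := (show Commute w h from c.ch).mul_right c.ch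
    ch' := (show Commute w' h from c.ch').mul_right c.ch'
    inv := by rw [← conj_mul, c.inv, mul_inv_rev] }

omit [Finite G] in
theorem inv_of_comm_mul {w v h : G} (ch : w * h = h * w) (hi : v * h * v⁻¹ = h⁻¹) :
    w * v * h * (w * v)⁻¹ = h⁻¹ := by
  calc w * v * h * (w * v)⁻¹ = w * (v * h * v⁻¹) * w⁻¹ := by group
    _ = h⁻¹ := by rw [hi, (show Commute w h from ch).inv_right.eq]; group

namespace Uni

theorem eq_one_of_odd (hU : Uni G Ω Z) {a : Ω} {g : G} (hg : g ∈ Cs (WA Z a))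
    (ho : Odd (orderOf g)) : g = 1 := by
  obtain ⟨k, hk⟩ := hU.ctwo a ⟨g, hg⟩
  exact orderOf_eq_one_iff.1 (((Nat.coprime_two_right.2 ho).pow_right k).eq_one_of_dvd
    (orderOf_dvd_of_pow_eq_one (congrArg Subtype.val hk)))

theorem exists_line (hU : Uni G Ω Z) {a b : Ω} (hab : a ≠ b) :
    ∃ v ∈ VV G Ω, v • a = a ∧ v • b = b ∧ ∀ d ∈ D0 Z a b, d = 1 ∨ d = v := by
  obtain ⟨v, h1, h2⟩ := (Nat.card_eq_two_iff' (1 : D0 Z a b)).1 (hU.dtwo a b hab)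
  have h3 : v ^ 2 = 1 := hU.dtwo a b hab ▸ pow_card_eq_one'
  refine ⟨v, ⟨⟨fun e => h1 (Subtype.ext e), (pow_two _).symm.trans (congrArg Subtype.val h3)⟩,
    a, b, hab, v.2.1.1, v.2.1.2⟩, v.2.1.1, v.2.1.2, fun d hd => ?_⟩
  by_cases e : d = 1
  · exact Or.inl e
  · exact Or.inr (congrArg Subtype.val (h2 ⟨d, hd⟩ fun e' => e (congrArg Subtype.val e')))

theorem D0_cases (hU : Uni G Ω Z) {v : G} (hv : v ∈ VV G Ω) {a b : Ω} (hab : a ≠ b)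
    (ha : v • a = a) (hb : v • b = b) {d : G} (hd : d ∈ D0 Z a b) : d = 1 ∨ d = v := by
  obtain ⟨u, -, -, -, h⟩ := hU.exists_line hab
  rw [(h v (hU.mem_D0_of_VV hv ha hb)).resolve_left hv.1.1]
  exact h d hd

theorem eq_of_fix (hU : Uni G Ω Z) {u v : G} (hu : u ∈ VV G Ω) (hv : v ∈ VV G Ω) {a b : Ω}
    (hab : a ≠ b) (h1 : u • a = a) (h2 : u • b = b) (ha : v • a = a) (hb : v • b = b) : u = v :=
  (hU.D0_cases hv hab ha hb (hU.mem_D0_of_VV hu h1 h2)).resolve_left hu.1.1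

theorem KT_fix' (hU : Uni G Ω Z) {a b : Ω} (hab : a ≠ b) {k : G} (hk : k ∈ KT Z a b) (hk1 : k ≠ 1)
    {c : Ω} (hc : k • c = c) : c = a ∨ c = b := by
  obtain ⟨v, hv, ha, hb, -⟩ := hU.exists_line hab
  exact hU.KT_fix hv hab ha hb hk hk1 hc

theorem exists_W (hU : Uni G Ω Z) {v : G} (hv : v ∈ VV G Ω) {a b c : Ω} (ha : v • a = a)
    (hb : v • b = b) (hc : v • c = c) (hba : b ≠ a) (hca : c ≠ a) : ∃ x ∈ WA Z a, x • b = c := by
  haveI := hU.finite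
  refine (Set.eq_of_subset_of_ncard_le (s := Orb (WA Z a) b) (t := fixedBy Ω v \ {a}) ?_ ?_).ge
    ⟨hc, hca⟩
  · rintro _ ⟨w, hw, rfl⟩
    exact ⟨by rw [mem_fixedBy, ← mul_smul, ← hU.vcent hv ha w hw, mul_smul, hb],
      fun e => hba (smul_left_cancel w (e.trans (WA_le a hw).symm))⟩
  · rw [Set.ncard_sdiff_singleton_of_mem (mem_fixedBy.2 ha), hU.fcard v hv a,
      ncard_orb_of_reg fun g hg => hU.eq_one_of_fix hba.symm hg]
    exact le_rfl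

theorem mul_mem_Z (hU : Uni G Ω Z) {u v : G} (hu : u ∈ VV G Ω) (hv : v ∈ VV G Ω) (hne : u ≠ v)
    (hc : u * v = v * u) : u * v ∈ Z := by
  obtain ⟨d, hd, h⟩ := Perm.exists_fixed_of_not_dvd_ncard Nat.prime_two _
    (isPGroup_zpowers_two hu.1.2) (fixedBy Ω v) (fun g hg x hx => by
      rw [mem_fixedBy, ← mul_smul, mem_Cs_zpowers.2 hc.symm g hg |>.symm, mul_smul, hx]) (by
      obtain ⟨a, -⟩ := hv.2
      have := hU.not_two_dvd_ncard_ZA a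
      rw [hU.fcard v hv a, ← hU.ncard_ZA]
      omega)
  have hud : u • d = d := h u (mem_zpowers u)
  obtain ⟨b, hbd, hb⟩ := exists_ne_of_VV hv d
  obtain ⟨x, hx, e⟩ := hU.exists_W hv hd hb (c := u • b)
    (by rw [← mul_smul, ← hc, mul_smul, hb]) hbd fun e => hbd (smul_left_cancel u (e.trans hud.symm))
  have h1 : u⁻¹ * x ∈ D0 Z d b := mem_inf.2 ⟨mem_St.2
    ⟨by rw [mul_smul, mem_stabilizer_iff.1 (WA_le d hx), inv_smul_eq_iff, hud],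
      by rw [mul_smul, e, inv_smul_smul]⟩,
    mul_mem (inv_mem (hU.vcent hu hud)) (hU.WA_le_Cs d hx)⟩
  rcases hU.D0_cases hv hbd.symm hd hb h1 with e1 | e1
  · rw [inv_mul_eq_one] at e1
    exact absurd hu (hU.zs.not_mem_VV (hU.mem_ZA_of_ne (e1 ▸ hx) hu.1.1).1)
  · rw [inv_mul_eq_iff_eq_mul] at e1
    exact (hU.mem_ZA_of_ne (e1 ▸ hx) (Invol.mul_of_comm hu.1 hv.1 hne.symm hc.symm).1).1

theorem mem_KT_of_LZ (hU : Uni G Ω Z) {v : G} (hv : v ∈ VV G Ω) {a b : Ω} (hab : a ≠ b)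
    (ha : v • a = a) (hb : v • b = b) {g : G} (hg : g ∈ LZ Z (C1 v)) (hga : g • a = a)
    (hgb : g • b = b) : g ∈ KT Z a b := by
  obtain ⟨Q, hQ⟩ := hU.sbp_VV hv ha
  obtain ⟨s, -, hs⟩ := hU.all a
  obtain ⟨k, ⟨hk, e⟩, -⟩ := hU.KT_reg hab hs (hU.zs.ZA_conj hs hga)
  have hW := hU.WZ_eq_of_le (hU.WA_le_C1 hv ha)
  have h1 : k⁻¹ * g ∈ LZ Z (C1 v) ⊓ St G a b :=
    mul_mem (inv_mem (mem_inf.2 ⟨hU.KT_le_LZ hv hab ha hb hk, hU.zs.KT_le a b hk⟩)) ⟨hg, hga, hgb⟩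
  have h2 := hQ.singer b (hU.mem_DZ_C1 hv hb) hab.symm _ h1 s (hW ▸ mem_WA hs) (hU.zs.ne_one hs.1) (by
    calc k⁻¹ * g * s = k⁻¹ * (g * s * g⁻¹) * g := by group
      _ = _ := by rw [← e]; group)
  rw [← inv_mul_eq_one.1 (hU.eq_one_of_odd (hW ▸ h2) (Chev.RankOne.odd_orderOf_of_mem
    (hQ.odd b (hU.mem_DZ_C1 hv hb) hab.symm) h1))]
  exact hk

theorem fix_of_fix (hU : Uni G Ω Z) {h w v : G} (hw : w ∈ VV G Ω) (hv : v ∈ VV G Ω) (hne : w ≠ v)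
    (hc : w * v = v * w) (h1 : h ≠ 1) (ho : Odd (orderOf h)) (ch : w * h = h * w)
    (hi : v * h * v⁻¹ = h⁻¹) {y : Ω} (hy : h • y = y) : w • y = y := by
  obtain ⟨h2, h3⟩ := hU.mem_KT_of_inv (hU.mul_mem_Z hw hv hne hc) ho h1 (inv_of_comm_mul ch hi) hy
  refine (hU.KT_fix' h2 h3 h1 (by rw [← mul_smul, ← ch, mul_smul, hy])).resolve_right fun e => ?_
  have e1 : v • y = y := (smul_left_cancel w (e.trans (mul_smul w v y))).symm
  exact not_comm_of_inv h1 ho hi (hU.D0_comm_KT h2 (hU.mem_D0_of_VV hv e1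
    (by rw [← e, ← mul_smul, ← hc, ← e]) ) h3)

theorem not_fix (hU : Uni G Ω Z) {h w w' v : G} (c : Conf Ω h w w' v) (y : Ω) : h • y ≠ y := by
  intro hy
  obtain ⟨h2, h3⟩ := hU.mem_KT_of_inv (hU.mul_mem_Z c.hw c.hv c.ne1 c.c1) c.odd c.h1
    (inv_of_comm_mul c.ch c.inv) hy
  have h4 := (hU.zs.KT_le _ _ h3).2
  exact c.ne (hU.eq_of_fix c.hw c.hw' h2
    (hU.fix_of_fix c.hw c.hv c.ne1 c.c1 c.h1 c.odd c.ch c.inv hy)
    (hU.fix_of_fix c.hw c.hv c.ne1 c.c1 c.h1 c.odd c.ch c.inv h4)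
    (hU.fix_of_fix c.hw' c.hv c.ne2 c.c2 c.h1 c.odd c.ch' c.inv hy)
    (hU.fix_of_fix c.hw' c.hv c.ne2 c.c2 c.h1 c.odd c.ch' c.inv h4))

theorem not_mem_Z (hU : Uni G Ω Z) {h w w' v : G} (c : Conf Ω h w w' v) {z : G} (hz : z ∈ C1 h) :
    z ∉ Z := fun h1 => by
  obtain ⟨d, hd⟩ := hU.zs.exists_ZA h1
  exact hU.not_fix c d (hU.zs.fix_of_comm hd (mem_C1_iff.1 hz).symm)

theorem mul_mem_Oc (hU : Uni G Ω Z) {h w w' v : G} (c : Conf Ω h w w' v) : w * w' ∈ Oc (C1 h) := by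
  refine rank_one_mul_mem (fun h2 => ?_) (mem_C1_iff.2 c.ch') c.hw'.1 (mem_C1_iff.2 c.ch) c.hw.1
  obtain ⟨x, hx, y, hy, h1, h3, h4, h5⟩ := twoRank_iff'.1 h2
  exact hU.not_mem_Z c (mul_mem hx hy) (hU.mul_mem_Z
    ((hU.mem_or_mem h1).resolve_left (hU.not_mem_Z c hx))
    ((hU.mem_or_mem h3).resolve_left (hU.not_mem_Z c hy)) h4 h5)

theorem comm_mul (hU : Uni G Ω Z) {h w w' v : G} (c : Conf Ω h w w' v) {y : G} (hy : y ∈ Z)
    (hyw : y * w = w * y) (hi : y * h * y⁻¹ = h⁻¹) : w * w' ∈ C1 (w * y) := by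
  have hu := hU.mul_mem_VV c.hw hy hyw
  have hO := odd_card_Oc (C1 h)
  have e : w * (w * y) = y := by rw [← mul_assoc, c.hw.1.2, one_mul]
  have h1 := GW.Lift.card_invertedBy_four (K := Oc (C1 h)) (z := w) (w := w * y)
    ⟨c.hw.1.2, hu.1.2, by rw [mul_assoc, hyw], c.hw.1.1, hu.1.1,
      fun e => hU.zs.ne_one hy (left_eq_mul.1 e)⟩ hO
    (le_normalizer_ppCoreOf 2 _ (mem_C1_iff.2 c.ch))
    (Ns_le_Ns_ppCoreOf 2 _ (Cs_zpowers' h ▸ normalizer_le_normalizer_centralizer _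
      (mem_Ns_zpowers_of_inv (inv_of_comm_mul c.ch hi))))
  have h2 : Nat.card (invertedBy (Oc (C1 h) ⊓ C1 (w * (w * y))) w) = 1 := by
    refine Nat.card_eq_one_iff_exists.2 ⟨⟨1, Chev.RankOne.invertedBy_one⟩, fun g => Subtype.ext ?_⟩
    obtain ⟨g, ⟨h3, h4⟩, h5⟩ := g
    obtain ⟨d, hd⟩ := hU.zs.exists_ZA hy
    rw [e] at h4
    have h6 := hU.vcent c.hw (hU.zs.fix_of_comm hd hyw.symm)
    have h7 := mul_mem (mem_normalizer_conj (normalizer_le_normalizer_centralizer _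
      (hU.zs.mem_Ns_WA (hU.zs.fix_of_comm hd (mem_C1_iff.1 h4)))) h6) (inv_mem h6)
    rw [show g * w * g⁻¹ * w⁻¹ = g * (w * g * w⁻¹)⁻¹ by group, h5, inv_inv] at h7
    exact Bender.eq_one_of_mem_of_odd hO h3
      (hU.eq_one_of_odd h7 (Chev.RankOne.odd_orderOf_of_mem hO (mul_mem h3 h3)))
  rw [show Nat.card (invertedBy (Oc (C1 h) ⊓ GW.C1 (w * (w * y))) w) = 1 from h2, mul_one] at h1
  exact ((invertedBy_eq_of_card_le inf_le_left h1.le).ge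
    ⟨hU.mul_mem_Oc c, Chev.RankOne.inverts_mul_left c.hw.1.2 c.hw'.1.2⟩).1.2

theorem exists_inv (hU : Uni G Ω Z) {h w w' v : G} (c : Conf Ω h w w' v) (hL : h ∈ LZ Z (C1 w))
    {a : Ω} (ha : w • a = a) : ∃ y ∈ ZA Z a, y * h * y⁻¹ = h⁻¹ := by
  have c1 : Commute w h := c.ch
  have h1 : w • h⁻¹ • a = h⁻¹ • a := by rw [← mul_smul, c1.inv_right.eq, mul_smul, ha]
  have h2 : h⁻¹ • a ≠ a := fun e => hU.not_fix c a (inv_smul_eq_iff.1 e).symm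
  obtain ⟨x, hx, e⟩ := hU.exists_W c.hw ha (b := h • a) (by rw [← mul_smul, c.ch, mul_smul, ha]) h1
    (hU.not_fix c a) h2
  have hxZ := hU.mem_ZA_of_ne hx (by
    rintro rfl
    exact hU.not_fix c.sq a (by rw [mul_smul, ← one_smul G (h • a), e, smul_inv_smul]))
  obtain ⟨t, htM, ht⟩ := hU.zs.exists_TZ (hU.mem_DZ_C1 c.hw ha) (hU.mem_DZ_C1 c.hw h1) h2.symm
  have h3 := (hU.kmem h2.symm ht).1 (hU.mem_KT_of_LZ c.hw h2.symm ha h1 (g := x * h * t)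
    (mul_mem (mul_mem (mem_LZ hxZ.1 (hU.WA_le_C1 c.hw ha hx)) hL) (mem_LZ ht.1 htM))
    (by rw [mul_smul, mul_smul, ht.2, smul_inv_smul, hxZ.2])
    (by rw [mul_smul, mul_smul, hU.zs.smul_of_TZ' ht, e]))
  rw [mul_assoc, hU.zs.mul_self ht.1, mul_one] at h3
  refine ⟨x, hxZ, eq_inv_of_mul_eq_one_left ?_⟩
  rw [hU.zs.inv_eq hxZ.1, mul_assoc, hU.zs.mul_self h3.1]

theorem torus (hU : Uni G Ω Z) {h w w' v : G} (c : Conf Ω h w w' v) (hL : h ∈ LZ Z (C1 w))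
    (a : Ω) : Nat.card ↥(LZ Z (C1 w) ⊓ C1 h) = Nat.card (WA Z a) + 1 ∧
      ∀ g ∈ LZ Z (C1 w) ⊓ C1 h, ∃ y ∈ Z, y * w = w * y ∧ y * h * y⁻¹ = h⁻¹ ∧ g = w * v * y := by
  haveI := hU.finite
  have hx := hU.mul_mem_Z c.hw c.hv c.ne1 c.c1
  have h1 := dc_le (A := fixedBy Ω w) (B := {y ∈ Z | y * w = w * y ∧ y * h * y⁻¹ = h⁻¹})
    (Set.toFinite _) (Set.toFinite _) (fun b y => y • b = b) (j := 1) (k := 1) (fun b hb => by
      obtain ⟨y, hy, e⟩ := hU.exists_inv c hL hb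
      exact (Set.ncard_pos (Set.toFinite _)).2
        ⟨y, ⟨hy.1, hU.vcent c.hw hb y (mem_WA hy), e⟩, hy.2⟩)
    fun y hy => (Set.ncard_le_one (Set.toFinite _)).2 fun b hb b' hb' =>
      hU.zs.uq y hy.1 b b' hb.2 hb'.2
  have h2 : (w * v * ·) '' {y ∈ Z | y * w = w * y ∧ y * h * y⁻¹ = h⁻¹} ⊆
      (LZ Z (C1 w) ⊓ C1 h : Subgroup G) := by
    rintro _ ⟨y, hy, rfl⟩
    refine ⟨mul_mem (mem_LZ hx (mem_C1_iff.2 (by rw [mul_assoc, c.c1]))) (mem_LZ hy.1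
      (mem_C1_iff.2 hy.2.1)), mem_C1_iff.2 (mul_inv_eq_iff_eq_mul.1 ?_)⟩
    calc w * v * y * h * (w * v * y)⁻¹ = w * v * (y * h * y⁻¹) * (w * v)⁻¹ := by group
      _ = h := by rw [hy.2.2, ← conj_inv, inv_of_comm_mul c.ch c.inv, inv_inv]
  obtain ⟨-, b, -, -, hb, -⟩ := c.hw
  have h3 : Nat.card ↥(LZ Z (C1 w) ⊓ C1 h) ≤ (fixedBy Ω w).ncard := by
    rw [← ncard_orb_of_reg (a := b) fun g hg e => ?_]
    · refine Set.ncard_le_ncard ?_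
      rintro _ ⟨g, hg, rfl⟩
      rw [mem_fixedBy, ← mul_smul, ← mem_C1_iff.1 (LZ_le _ hg.1), mul_smul, hb]
    · by_contra hg1
      have e1 : ∀ x : Ω, g • x = x → g • h • x = h • x := fun x hx => by
        rw [← mul_smul, mem_C1_iff.1 hg.2, mul_smul, hx]
      rcases hU.KT_fix' (hU.not_fix c b).symm (hU.mem_KT_of_LZ c.hw (hU.not_fix c b).symm hb
        (by rw [← mul_smul, c.ch, mul_smul, hb]) hg.1 e (e1 b e)) hg1 (e1 _ (e1 b e)) with e2 | e2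
      · exact hU.not_fix c.sq b (by rw [mul_smul, e2])
      · exact hU.not_fix c _ e2
  have h4 := Set.ncard_le_ncard h2
  have h5 := Set.ncard_image_of_injective {y ∈ Z | y * w = w * y ∧ y * h * y⁻¹ = h⁻¹}
    (mul_right_injective (w * v))
  rw [ncard_coe] at h4
  refine ⟨by rw [← hU.fcard w c.hw a]; omega, fun g hg => ?_⟩
  obtain ⟨y, hy, e⟩ := (Set.eq_of_subset_of_ncard_le h2 (by rw [ncard_coe]; omega)).ge hg
  exact ⟨y, hy.1, hy.2.1, hy.2.2, e.symm⟩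

theorem card_eq (hU : Uni G Ω Z) (a : Ω) : Nat.card Ω = Nat.card (WA Z a) ^ 3 + 1 := by
  obtain ⟨v, hv⟩ := hU.bad
  rw [hU.count hv a, Nat.card_coe_set_eq, hU.fcard v hv a, ← hU.ncard_ZA]
  simp only [Nat.add_sub_cancel]
  ring

theorem ncard_VV_fix (hU : Uni G Ω Z) (c : Ω) :
    {u ∈ VV G Ω | u • c = c}.ncard = Nat.card (WA Z c) ^ 2 := by
  haveI := hU.finite
  have h1 := dc1 (A := ({c}ᶜ : Set Ω)) (B := {u ∈ VV G Ω | u • c = c}) (Set.toFinite _)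
    (Set.toFinite _) (fun b u => u • b = b) (k := Nat.card (WA Z c)) (fun b hb => by
      obtain ⟨v, hv, h2, h3, -⟩ := hU.exists_line (Ne.symm hb)
      exact ⟨v, ⟨⟨hv, h2⟩, h3⟩, fun u hu => hU.eq_of_fix hu.1.1 hv hb hu.2 hu.1.2 h3 h2⟩)
    fun u hu => by
      have := Set.ncard_sdiff_singleton_of_mem (mem_fixedBy.2 hu.2)
      rw [hU.fcard u hu.1 c, Nat.add_sub_cancel] at this
      rw [← this]
      congr 1
      ext b
      exact ⟨fun h => ⟨h.2, h.1⟩, fun h => ⟨h.2, h.1⟩⟩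
  have h2 := Set.ncard_add_ncard_compl ({c} : Set Ω)
  rw [Set.ncard_singleton, hU.card_eq c, h1] at h2
  have h3 := hU.four_le c
  refine Nat.eq_of_mul_eq_mul_right (show 0 < Nat.card (WA Z c) by omega) ?_
  rw [← pow_succ, show 2 + 1 = 3 from rfl]
  omega

theorem exists_conf (hU : Uni G Ω Z) :
    ∃ h w w' v : G, Conf Ω h w w' v ∧ h ∈ LZ Z (C1 w) := by
  haveI := hU.finite
  by_contra hn
  obtain ⟨v, hv⟩ := hU.bad
  obtain ⟨c, hc⟩ := hU.exists_not_fix hv.1.1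
  obtain ⟨s, hs, hu⟩ := hU.foot hv hc
  obtain ⟨d₀, hd₀⟩ := hU.zs.exists_ZA hs.1
  have hvd₀ := hU.zs.fix_of_comm hd₀ hs.2.1.symm
  have h1 := dc_le (A := (Z ∩ (C1 v : Set G)) \ ZA Z d₀)
    (B := {u ∈ {u ∈ VV G Ω | u • c = c} | ∀ b : Ω, v • b = b → u • b ≠ b}) (Set.toFinite _)
    (Set.toFinite _) (fun x u => ∃ x' ∈ Z, x' * (v * x) = v * x * x' ∧ u = v * x * x' ∧
      Odd (orderOf (x * x')) ∧ x * x' ≠ 1) (j := 1) (k := 1) (fun x hx => by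
      have hxv := mem_C1_iff.1 hx.1.2
      have hw := hU.mul_mem_VV hv hx.1.1 hxv
      obtain ⟨x', h2, h3, h4⟩ := hU.exists_foot hw.1 (c := c) fun e =>
        hx.2 (hu x ⟨hx.1.1, hxv, e⟩ ▸ hd₀)
      have h5 : x * x' ≠ 1 := fun e => hc (by rwa [mul_assoc, e, mul_one] at h4)
      obtain ⟨d, hd⟩ := hU.zs.exists_ZA hx.1.1
      obtain ⟨d', hd'⟩ := hU.zs.exists_ZA h2
      have h6 : Odd (orderOf (x * x')) := hU.zs.odd_mul (fun e => by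
        subst e
        have h7 := mul_mem (mem_WA hd) (mem_WA hd')
        have h8 := hU.mem_ZA_of_ne h7 h5
        rw [hu _ ⟨h8.1, hU.vcent hv (hU.zs.fix_of_comm hd hxv.symm) _ h7,
          by rwa [← mul_assoc]⟩] at h8
        exact hx.2 (hU.zs.eq_of_ZA h8 hd₀.2 ▸ hd)) hd hd'
      refine (Set.ncard_pos (Set.toFinite _)).2 ⟨v * x * x', ⟨⟨hU.mul_mem_VV hw h2 h3, h4⟩,
        fun b hb hb' => h5 (hU.eq_one_of_odd (a := b) ?_ h6)⟩, x', h2, h3, rfl, h6, h5⟩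
      have := mul_mem (inv_mem (hU.vcent hv hb)) (hU.vcent (hU.mul_mem_VV hw h2 h3) hb')
      rwa [mul_assoc, inv_mul_cancel_left] at this)
    fun u _ => (Set.ncard_le_one (Set.toFinite _)).2 (by
      rintro x ⟨hx, x', h2, h3, h4, h5, h6⟩ y ⟨hy, y', h2', h3', h4', -⟩
      by_contra hne
      have c1 : Commute x v := mem_C1_iff.1 hx.1.2
      have c2 : Commute y v := mem_C1_iff.1 hy.1.2
      have c3 : Commute x (v * x) := c1.mul_right (Commute.refl x)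
      have c4 : Commute y (v * y) := c2.mul_right (Commute.refl y)
      have e : x * x' = y * y' := mul_left_cancel (a := v) (by rw [← mul_assoc, ← h4, h4', mul_assoc])
      refine hn ⟨x * x', v * x, v * y, v, ⟨hU.mul_mem_VV hv hx.1.1 c1, hU.mul_mem_VV hv hy.1.1 c2, hv,
        fun e => hne (mul_left_cancel e), fun e => hU.zs.ne_one hx.1.1 (mul_eq_left.1 e),
        fun e => hU.zs.ne_one hy.1.1 (mul_eq_left.1 e), (Commute.refl v).mul_left c1,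
        (Commute.refl v).mul_left c2, h6, h5, (c3.mul_left h3).symm, e ▸ (c4.mul_left h3').symm, ?_⟩,
        mul_mem (mem_LZ hx.1.1 (mem_C1_iff.2 c3)) (mem_LZ h2 (mem_C1_iff.2 h3))⟩
      rw [← mul_assoc, ← h3, mul_inv_rev, hU.zs.inv_eq h2, hU.zs.inv_eq hx.1.1, ← c1.eq]
      group)
  have h2 := dc_le (A := fixedBy Ω v)
    (B := {u ∈ {u ∈ VV G Ω | u • c = c} | ¬ ∀ b : Ω, v • b = b → u • b ≠ b}) (Set.toFinite _)
    (Set.toFinite _) (fun b u => u • b = b) (j := 1) (k := 1) (fun b hb => by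
      obtain ⟨u, h3, h4, h5, -⟩ := hU.exists_line (a := c) (b := b) fun e => hc (e ▸ hb)
      exact (Set.ncard_pos (Set.toFinite _)).2 ⟨u, ⟨⟨h3, h4⟩, fun h => h b hb h5⟩, h5⟩)
    fun u hu => (Set.ncard_le_one (Set.toFinite _)).2 fun b hb b' hb' => by
      by_contra hne
      exact hc (hU.eq_of_fix hu.1.1 hv hne hb.2 hb'.2 hb.1 hb'.1 ▸ hu.1.2)
  have h3 := Set.ncard_union_eq (s := {u ∈ {u ∈ VV G Ω | u • c = c} | ∀ b : Ω, v • b = b → u • b ≠ b})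
    (t := {u ∈ {u ∈ VV G Ω | u • c = c} | ¬ ∀ b : Ω, v • b = b → u • b ≠ b})
    (Set.disjoint_left.2 fun u h h' => h'.2 h.2)
  rw [← Set.sep_or, Set.sep_eq_self_iff_mem_true.2 fun _ _ => em _, hU.ncard_VV_fix,
    hU.card_WA c d₀] at h3
  have h4 : ZA Z d₀ ⊆ (C1 v : Set G) := fun x hx => hU.WA_le_C1 hv hvd₀ (mem_WA hx)
  have h5 := Set.ncard_sdiff_add_ncard_of_subset (s := ZA Z d₀) (t := Z ∩ (C1 v : Set G))
    fun x hx => ⟨hx.1, h4 hx⟩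
  rw [hU.ncard_Z_C1 hv hvd₀, Set.inter_eq_left.2 h4] at h5
  rw [hU.fcard v hv d₀, ← hU.ncard_ZA] at h2 h5
  rw [← hU.ncard_ZA] at h3
  nlinarith

theorem false (hU : Uni G Ω Z) : False := by
  obtain ⟨h, w, w', v, c, hL⟩ := hU.exists_conf
  obtain ⟨a, -⟩ := c.hv.2
  have hx := hU.mul_mem_Z c.hw c.hv c.ne1 c.c1
  obtain ⟨hT, hT'⟩ := hU.torus c hL a
  have c1 : Commute w v := c.c1
  have hconf : ∀ g ∈ LZ Z (C1 w) ⊓ C1 h, g ≠ 1 → ∃ u, g = v * u ∧ Conf Ω (w * w') v u w := by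
    intro g hg hg1
    obtain ⟨y, h1, h2, h3, rfl⟩ := hT' g hg
    refine ⟨w * y, by rw [c.c1, mul_assoc], c.hv, hU.mul_mem_VV c.hw h1 h2, c.hw, fun e => hg1 ?_,
      c.ne1.symm, fun e => hU.zs.ne_one h1 (mul_eq_left.1 e), c.c1.symm, by rw [mul_assoc, h2],
      fun e => c.ne (by rw [← c.hw.1.inv_eq]; exact inv_eq_of_mul_eq_one_right e),
      Chev.RankOne.odd_orderOf_of_mem (odd_card_Oc _) (hU.mul_mem_Oc c),
      (c1.mul_left c.c2).symm, (mem_C1_iff.1 (hU.comm_mul c h1 h2 h3)).symm,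
      Chev.RankOne.inverts_mul_left c.hw.1.2 c.hw'.1.2⟩
    rw [c.c1, mul_assoc, ← e, c.hv.1.2]
  have hL' : w * w' ∈ LZ Z (C1 v) := by
    have := mul_mem (mem_LZ (M := C1 v) hx (mem_C1_iff.2 (c1.mul_left (Commute.refl v))))
      (mem_LZ (hU.mul_mem_Z c.hv c.hw' c.ne2.symm c.c2.symm)
        (mem_C1_iff.2 ((Commute.refl v).mul_left c.c2)))
    rwa [mul_assoc, ← mul_assoc v, c.hv.1.2, one_mul] at this
  have hcomm : ∀ g ∈ LZ Z (C1 w) ⊓ C1 h, ∀ g' ∈ LZ Z (C1 v) ⊓ C1 (w * w'), g * g' = g' * g := by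
    intro g hg g' hg'
    by_cases hg1 : g = 1
    · rw [hg1, one_mul, mul_one]
    obtain ⟨u, rfl, c'⟩ := hconf g hg hg1
    obtain ⟨y, h1, h2, h3, rfl⟩ := (hU.torus c' hL' a).2 g' hg'
    have e1 : Commute (v * u) (v * y) := mem_C1_iff.1 (hU.comm_mul c' h1 h2 h3)
    have e2 : Commute (v * u) w := c1.symm.mul_left c'.c2
    have := e2.mul_right e1
    rwa [← mul_assoc, c.c1] at this
  obtain ⟨u, -, c'⟩ := hconf h ⟨hL, mem_C1_iff.2 rfl⟩ c.h1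
  obtain ⟨hS, hS'⟩ := hU.torus c' hL' a
  have i1 : ∀ g ∈ LZ Z (C1 w) ⊓ C1 h, w * v * g * (w * v)⁻¹ = g⁻¹ := fun g hg => by
    obtain ⟨y, h1, -, -, rfl⟩ := hT' g hg
    exact Chev.RankOne.inverts_mul_left (hU.zs.mul_self hx) (hU.zs.mul_self h1)
  have i2 : ∀ g ∈ LZ Z (C1 v) ⊓ C1 (w * w'), w * v * g * (w * v)⁻¹ = g⁻¹ := fun g hg => by
    obtain ⟨y, h1, -, -, rfl⟩ := hS' g hg
    rw [← c.c1]
    exact Chev.RankOne.inverts_mul_left (hU.zs.mul_self hx) (hU.zs.mul_self h1)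
  have hq : Odd (Nat.card (WA Z a) + 1) := by
    rw [← hU.ncard_ZA]
    exact (hU.odd_card_ZA a).add_one.add_one
  have hN : LZ Z (C1 v) ⊓ C1 (w * w') ≤ Ns (LZ Z (C1 w) ⊓ C1 h) :=
    fun g' hg' => Cs_le_Ns _ fun g hg => hcomm g hg g' hg'
  have h1 := Solv.card_sup_of_disjoint_of_le_normalizer hN (eq_bot_iff.2 fun g hg => by
    have e1 : Commute w g := (mem_C1_iff.1 (LZ_le _ hg.1.1)).symm
    have e2 : Commute v g := (mem_C1_iff.1 (LZ_le _ hg.2.1)).symm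
    by_contra hg1
    exact not_comm_of_inv hg1 (Chev.RankOne.odd_orderOf_of_mem (hT ▸ hq) hg.1) (i1 g hg.1)
      (e1.mul_left e2))
  rw [hT, hS] at h1
  have h2 := card_dvd_ncard_of_free (Ω := Ω) (LZ Z (C1 w) ⊓ C1 h ⊔ LZ Z (C1 v) ⊓ C1 (w * w'))
    Set.univ (fun _ _ _ _ => trivial) fun g hg y _ hy => by
      by_contra hg1
      have h3 := Subgroup.orderOf_dvd_natCard _ hg
      rw [h1] at h3
      obtain ⟨n, hn, m, hm, rfl⟩ := (Solv.mem_sup_of_le_normalizer hN).1 hg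
      obtain ⟨h4, h5⟩ := hU.mem_KT_of_inv hx ((hq.mul hq).of_dvd_nat h3) hg1
        (by rw [← conj_mul, i1 n hn, i2 m hm, hcomm n hn m hm, mul_inv_rev]) hy
      have h6 := Subgroup.orderOf_dvd_natCard _ h5
      rw [hU.card_KT h4, show (ZA Z y).ncard = (ZA Z a).ncard from hU.card_ZA y a] at h6
      rw [← hU.ncard_ZA] at h3
      refine hg1 (orderOf_eq_one_iff.1 (Nat.eq_one_of_dvd_coprimes (Nat.Coprime.mul_left ?_ ?_) h3 h6))
      all_goals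
        rw [add_assoc, Nat.coprime_self_add_left]
        exact Nat.coprime_two_left.2 (hU.odd_card_ZA a)
  rw [h1, Set.ncard_univ, hU.card_eq a] at h2
  have h3 := hU.four_le a
  generalize Nat.card (WA Z a) = q at h2 h3
  obtain ⟨m, rfl⟩ : ∃ m, q = m + 2 := ⟨q - 2, by omega⟩
  rw [show (m + 2) ^ 3 + 1 = (m + 2 + 1) * ((m + 2 + 1) * m + 3) by ring,
    Nat.mul_dvd_mul_iff_left (by omega), Nat.dvd_add_right (dvd_mul_right _ _)] at h2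
  have := Nat.le_of_dvd (by norm_num) h2
  omega

end Uni

theorem Ctx4.case1_two (hC : Ctx4 G Ω Z)
    (hf : ∀ v ∈ VV G Ω, ∀ a : Ω, Nat.card (fixedBy Ω v) = Nat.card (WA Z a) + 1)
    (h2 : ∀ a : Ω, IsPGroup 2 (Cs (WA Z a))) (hD : ∀ a b : Ω, a ≠ b → Nat.card (D0 Z a b) = 2) :
    False :=
  Uni.false ⟨hC.toCtx3, hf, h2, hD⟩

end Cfsg.Lib.SEC
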